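import Cfsg.Agent.Lib.JordanFix.Realize

/-!
# Elements of `Ω` of order `p` fixing a nondegenerate subspace of given dimension: necessary conditions
-/

set_option autoImplicit false
set_option linter.unusedSectionVars false

namespace Cfsg.Agent.Lib.JordanFix

open Module Cfsg Cfsg.Agent.Lib.Jordan.Basis Cfsg.Agent.Lib.Orth.Bridge QuadraticMap
open scoped Matrix

section Combinatorics

theorem even_sum_of_all_even (s : Multiset ℕ) (h : ∀ e ∈ s, Even e) : Even s.sum := by
  induction s using Multiset.induction_on with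
  | empty => simp
  | cons a s ih =>
    rw [Multiset.sum_cons]
    exact (h a (Multiset.mem_cons_self _ _)).add (ih fun e he => h e (Multiset.mem_cons_of_mem he))

theorem split_zero {k : ℕ} {ν : Multiset ℕ} (hν : ν ≤ Multiset.replicate k 2) (hev : Even (ν.count 2)) :
    ∃ j, Even j ∧ ν = Multiset.replicate j 2 := by
  obtain ⟨j, -, rfl⟩ := Multiset.le_replicate_iff.mp hν
  refine ⟨j, ?_, rfl⟩
  rwa [Multiset.count_replicate_self] at hev

theorem split_one {a k : ℕ} (ha : Odd a) {ν : Multiset ℕ} (hν : ν ≤ a ::ₘ Multiset.replicate k 2) (hs : Even ν.sum)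
    (hev : Even (ν.count 2)) : ∃ j, Even j ∧ ν = Multiset.replicate j 2 := by
  classical
  by_cases ha' : a ∈ ν
  · exfalso
    have h1 : ν.erase a ≤ Multiset.replicate k 2 := by
      have := Multiset.erase_le_erase a hν
      rwa [Multiset.erase_cons_head] at this
    obtain ⟨j, -, hj⟩ := Multiset.le_replicate_iff.mp h1
    have h3 : ν = a ::ₘ Multiset.replicate j 2 := by
      rw [← hj, Multiset.cons_erase ha']
    rw [h3, Multiset.sum_cons, Multiset.sum_replicate, Nat.even_add] at hs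
    have h4 : Even (j • 2) := by simp
    exact (Nat.not_even_iff_odd.mpr ha) (hs.mpr h4)
  · exact split_zero (Multiset.le_cons_of_notMem ha' |>.mp hν) hev

theorem split_two {a b k : ℕ} (ha : Odd a) (hb : Odd b) {ν : Multiset ℕ}
    (hν : ν ≤ a ::ₘ b ::ₘ Multiset.replicate k 2) (hs : Even ν.sum) (hev : Even (ν.count 2)) :
    (∃ j, Even j ∧ ν = Multiset.replicate j 2) ∨ ∃ j, Even j ∧ ν = a ::ₘ b ::ₘ Multiset.replicate j 2 := by
  classical
  have ha2 : a ≠ 2 := by
    rintro rfl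
    exact absurd ha (by decide)
  have hb2 : b ≠ 2 := by
    rintro rfl
    exact absurd hb (by decide)
  by_cases ha' : a ∈ ν
  · right
    have h1 : ν.erase a ≤ b ::ₘ Multiset.replicate k 2 := by
      have := Multiset.erase_le_erase a hν
      rwa [Multiset.erase_cons_head] at this
    have h3 : Even ((ν.erase a).count 2) := by
      rwa [Multiset.count_erase_of_ne ha2.symm]
    have hsum : ν.sum = a + (ν.erase a).sum := by
      conv_lhs => rw [← Multiset.cons_erase ha', Multiset.sum_cons]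
    by_cases hb' : b ∈ ν.erase a
    · have h4 : (ν.erase a).erase b ≤ Multiset.replicate k 2 := by
        have := Multiset.erase_le_erase b h1
        rwa [Multiset.erase_cons_head] at this
      have h5 : Even (((ν.erase a).erase b).count 2) := by
        rwa [Multiset.count_erase_of_ne hb2.symm]
      obtain ⟨j, hj, h6⟩ := split_zero h4 h5
      refine ⟨j, hj, ?_⟩
      rw [← h6, Multiset.cons_erase hb', Multiset.cons_erase ha']
    · exfalso
      obtain ⟨j, -, h6⟩ := split_zero ((Multiset.le_cons_of_notMem hb').mp h1) h3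
      rw [hsum, h6, Multiset.sum_replicate, Nat.even_add] at hs
      have h4 : Even (j • 2) := by simp
      exact (Nat.not_even_iff_odd.mpr ha) (hs.mpr h4)
  · left
    exact split_one hb ((Multiset.le_cons_of_notMem ha').mp hν) hs hev

/-- Removing the hypothesis that a part is odd. -/
theorem reduce_even {p m n : ℕ} (hp : Odd p) (hm : Even m) (hn : 0 < n)
    (H : ∀ μ : Multiset ℕ, (∀ e ∈ μ, 0 < e ∧ e ≤ p) → (∀ e : ℕ, Even e → Even (μ.count e)) → μ.sum = n →
      (∃ e₀ ∈ μ, Odd e₀) → ∃ ν : Multiset ℕ, ν ≤ μ ∧ ν.sum = m ∧ ∀ e : ℕ, Even e → Even (ν.count e))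
    (μ : Multiset ℕ) (hμ : ∀ e ∈ μ, 0 < e ∧ e ≤ p) (hev : ∀ e : ℕ, Even e → Even (μ.count e)) (hsum : μ.sum = n) :
    ∃ ν : Multiset ℕ, ν ≤ μ ∧ ν.sum = m ∧ ∀ e : ℕ, Even e → Even (ν.count e) := by
  classical
  by_cases hodd : ∃ e₀ ∈ μ, Odd e₀
  · exact H μ hμ hev hsum hodd
  push Not at hodd
  have hall : ∀ e ∈ μ, Even e := fun e he => Nat.not_odd_iff_even.mp (hodd e he)
  have hne : μ ≠ 0 := by
    rintro rfl
    simp at hsum
    omega
  obtain ⟨e, he⟩ := Multiset.exists_mem_of_ne_zero hne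
  have heven := hall e he
  have hcount : 2 ≤ μ.count e := by
    have h1 := Multiset.count_pos.mpr he
    obtain ⟨r, hr⟩ := hev e heven
    omega
  have he' : e ∈ μ.erase e := by
    rw [← Multiset.count_pos, Multiset.count_erase_self]
    omega
  obtain ⟨μ', hμ'⟩ : ∃ μ', μ' = (μ.erase e).erase e := ⟨_, rfl⟩
  have hμe : μ = e ::ₘ e ::ₘ μ' := by
    rw [hμ', Multiset.cons_erase he', Multiset.cons_erase he]
  have he0 := (hμ e he).1
  have hep := (hμ e he).2
  have hlt : e < p := by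
    rcases Nat.lt_or_ge e p with h | h
    · exact h
    · have : e = p := le_antisymm hep h
      subst this
      exact absurd hp (Nat.not_odd_iff_even.mpr heven)
  have hall' : ∀ c ∈ μ', Even c := fun c hc => hall c (by rw [hμe]; simp [hc])
  have hAodd : Odd (e + 1) := heven.add_one
  have hCodd : Odd (e - 1) := Nat.Even.sub_odd (by omega) heven (by decide)
  have hnotA : e + 1 ∉ μ' := fun h => (Nat.not_even_iff_odd.mpr hAodd) (hall' _ h)
  have hnotC : e - 1 ∉ μ' := fun h => (Nat.not_even_iff_odd.mpr hCodd) (hall' _ h)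
  have hcnt : ∀ c : ℕ, Even c → c ≠ e + 1 ∧ c ≠ e - 1 := by
    intro c hc
    constructor
    · rintro rfl
      exact (Nat.not_even_iff_odd.mpr hAodd) hc
    · rintro rfl
      exact (Nat.not_even_iff_odd.mpr hCodd) hc
  have hev' : ∀ c : ℕ, Even c → Even (μ'.count c) := by
    intro c hc
    have h1 := hev c hc
    rw [hμe, Multiset.count_cons, Multiset.count_cons] at h1
    by_cases h : c = e
    · subst h
      simp only [if_true] at h1
      rw [Nat.even_add] at h1
      have h3 : Even (Multiset.count c μ' + 1) ↔ Odd (Multiset.count c μ') := by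
        rw [Nat.even_add_one, Nat.not_even_iff_odd]
      have h4 : Odd 1 := by decide
      rcases Nat.even_or_odd (Multiset.count c μ') with h5 | h5
      · exact h5
      · exact absurd (h1.mp (h3.mpr h5)) (by decide)
    · simpa [h] using h1
  obtain ⟨ν, hν, hνs, hνe⟩ := H ((e + 1) ::ₘ (e - 1) ::ₘ μ') (by
      intro c hc
      rw [Multiset.mem_cons, Multiset.mem_cons] at hc
      rcases hc with rfl | rfl | hc
      · omega
      · obtain ⟨r, hr⟩ := heven
        omega
      · exact hμ c (by rw [hμe]; simp [hc])) (by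
      intro c hc
      obtain ⟨h1, h3⟩ := hcnt c hc
      rw [Multiset.count_cons_of_ne h1, Multiset.count_cons_of_ne h3]
      exact hev' c hc) (by
      rw [Multiset.sum_cons, Multiset.sum_cons, ← hsum, hμe, Multiset.sum_cons, Multiset.sum_cons]
      omega) ⟨e + 1, by simp, hAodd⟩
  have hsev : Even ν.sum := by
    rw [hνs]
    exact hm
  by_cases hA : e + 1 ∈ ν
  · have h1 : ν.erase (e + 1) ≤ (e - 1) ::ₘ μ' := by
      have := Multiset.erase_le_erase (e + 1) hν
      rwa [Multiset.erase_cons_head] at this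
    have hsumA : ν.sum = (e + 1) + (ν.erase (e + 1)).sum := by
      conv_lhs => rw [← Multiset.cons_erase hA, Multiset.sum_cons]
    by_cases hC : e - 1 ∈ ν.erase (e + 1)
    · have h3 : (ν.erase (e + 1)).erase (e - 1) ≤ μ' := by
        have := Multiset.erase_le_erase (e - 1) h1
        rwa [Multiset.erase_cons_head] at this
      have hsumC : (ν.erase (e + 1)).sum = (e - 1) + ((ν.erase (e + 1)).erase (e - 1)).sum := by
        conv_lhs => rw [← Multiset.cons_erase hC, Multiset.sum_cons]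
      refine ⟨e ::ₘ e ::ₘ ((ν.erase (e + 1)).erase (e - 1)), ?_, ?_, ?_⟩
      · rw [hμe]
        exact Multiset.cons_le_cons _ (Multiset.cons_le_cons _ h3)
      · rw [Multiset.sum_cons, Multiset.sum_cons, ← hνs, hsumA, hsumC]
        omega
      · intro c hc
        obtain ⟨h4, h5⟩ := hcnt c hc
        have h6 := hνe c hc
        rw [← Multiset.cons_erase hA, Multiset.count_cons_of_ne h4, ← Multiset.cons_erase hC,
          Multiset.count_cons_of_ne h5] at h6
        rw [Multiset.count_cons, Multiset.count_cons]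
        by_cases h : c = e
        · simp only [h, if_true] at h6 ⊢
          rw [add_assoc]
          exact h6.add (by decide)
        · simpa [h] using h6
    · exfalso
      have h3 : ν.erase (e + 1) ≤ μ' := (Multiset.le_cons_of_notMem hC).mp h1
      have h4 : Even (ν.erase (e + 1)).sum := even_sum_of_all_even _ fun c hc => hall' c (Multiset.mem_of_le h3 hc)
      rw [hsumA, Nat.even_add] at hsev
      exact (Nat.not_even_iff_odd.mpr hAodd) (hsev.mpr h4)
  · have h1 : ν ≤ (e - 1) ::ₘ μ' := (Multiset.le_cons_of_notMem hA).mp hν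
    by_cases hC : e - 1 ∈ ν
    · exfalso
      have h3 : ν.erase (e - 1) ≤ μ' := by
        have := Multiset.erase_le_erase (e - 1) h1
        rwa [Multiset.erase_cons_head] at this
      have hsumC : ν.sum = (e - 1) + (ν.erase (e - 1)).sum := by
        conv_lhs => rw [← Multiset.cons_erase hC, Multiset.sum_cons]
      have h4 : Even (ν.erase (e - 1)).sum := even_sum_of_all_even _ fun c hc => hall' c (Multiset.mem_of_le h3 hc)
      rw [hsumC, Nat.even_add] at hsev
      exact (Nat.not_even_iff_odd.mpr hCodd) (hsev.mpr h4)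
    · refine ⟨ν, ?_, hνs, hνe⟩
      have h3 : ν ≤ μ' := (Multiset.le_cons_of_notMem hC).mp h1
      rw [hμe]
      exact h3.trans ((Multiset.le_cons_self _ _).trans (Multiset.le_cons_self _ _))

theorem props_one {a k p : ℕ} (ha : Odd a) (hap : a ≤ p) (h2p : 2 ≤ p) (hk : Even k) :
    (∀ e ∈ a ::ₘ Multiset.replicate k 2, 0 < e ∧ e ≤ p) ∧
      (∀ e : ℕ, Even e → Even ((a ::ₘ Multiset.replicate k 2).count e)) ∧
        (a ::ₘ Multiset.replicate k 2).sum = a + 2 * k := by
  have ha0 : 0 < a := ha.pos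
  refine ⟨?_, ?_, ?_⟩
  · intro e he
    rw [Multiset.mem_cons] at he
    rcases he with rfl | he
    · exact ⟨ha0, hap⟩
    · rw [Multiset.eq_of_mem_replicate he]
      omega
  · intro e he
    have hne : e ≠ a := by
      rintro rfl
      exact (Nat.not_even_iff_odd.mpr ha) he
    rw [Multiset.count_cons_of_ne hne, Multiset.count_replicate]
    split_ifs
    · exact hk
    · exact ⟨0, rfl⟩
  · rw [Multiset.sum_cons, Multiset.sum_replicate]
    simp
    ring

theorem props_two {a b k p : ℕ} (ha : Odd a) (hb : Odd b) (hap : a ≤ p) (hbp : b ≤ p) (h2p : 2 ≤ p) (hk : Even k) :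
    (∀ e ∈ a ::ₘ b ::ₘ Multiset.replicate k 2, 0 < e ∧ e ≤ p) ∧
      (∀ e : ℕ, Even e → Even ((a ::ₘ b ::ₘ Multiset.replicate k 2).count e)) ∧
        (a ::ₘ b ::ₘ Multiset.replicate k 2).sum = a + (b + 2 * k) := by
  obtain ⟨h1, h3, h4⟩ := props_one ha hap h2p hk
  obtain ⟨h5, h6, h7⟩ := props_one hb hbp h2p hk
  refine ⟨?_, ?_, ?_⟩
  · intro e he
    rw [Multiset.mem_cons] at he
    rcases he with rfl | he
    · exact ⟨ha.pos, hap⟩
    · exact h5 e he
  · intro e he
    have hne : e ≠ a := by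
      rintro rfl
      exact (Nat.not_even_iff_odd.mpr ha) he
    rw [Multiset.count_cons_of_ne hne]
    exact h6 e he
  · rw [Multiset.sum_cons, h7]

end Combinatorics

section Fix

variable {F : Type*} [Field F] [Fintype F] {p : ℕ} [Fact p.Prime] [CharP F p] {ι : Type} [Fintype ι] [DecidableEq ι]

theorem two_ne_zero_of_odd_card {q : ℕ} (hq : Fintype.card F = q) (hqodd : Odd q) : (2 : F) ≠ 0 := by
  intro h
  have h1 : ringChar F = 2 := CharP.ringChar_of_prime_eq_zero Nat.prime_two (by exact_mod_cast h)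
  have h3 := FiniteField.even_card_of_char_two h1
  rw [hq] at h3
  obtain ⟨r, hr⟩ := hqodd
  omega

theorem odd_char_of_two (h2 : (2 : F) ≠ 0) : Odd p ∧ 3 ≤ p := by
  have hp : p.Prime := Fact.out
  have hne : p ≠ 2 := by
    rintro rfl
    apply h2
    have h3 := CharP.cast_eq_zero F 2
    exact_mod_cast h3
  have h3 := hp.two_le
  have h4 : 3 ≤ p := by omega
  rcases hp.eq_two_or_odd' with h | h
  · exact absurd h hne
  · exact ⟨h, h4⟩

/-- What an invariant nondegenerate subspace gives. -/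
theorem sub_of_fix (h2 : (2 : F) ≠ 0) (Q : QuadraticForm F (ι → F)) (hQ : (polarBilin Q).Nondegenerate) (x : GL ι F)
    (hx : x ∈ isometryGroup F ⇑Q) {μ : Multiset ℕ} (hμ : ∀ e ∈ μ, 0 < e ∧ e ≤ p)
    (hr : HasRanks (Matrix.mulVecLin ((x : Matrix ι ι F) - 1)) μ) (W : Submodule F (ι → F))
    (hW : Cfsg.Geo.IsNondegenerateOn (QuadraticMap.polar ⇑Q) W)
    (hxW : W.map (Matrix.toLin' (x : Matrix ι ι F)) ≤ W) :
    ∃ ν : Multiset ℕ, ν ≤ μ ∧ ν.sum = finrank F W ∧ (∀ e : ℕ, Even e → Even (ν.count e)) ∧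
      ∀ j, ν = Multiset.replicate j 2 → Cfsg.Geo.IsPlusTypeOn ⇑Q W := by
  classical
  have h0 : 0 ∉ μ := fun h => lt_irrefl _ (hμ 0 h).1
  set N : (ι → F) →ₗ[F] (ι → F) := Matrix.mulVecLin ((x : Matrix ι ι F) - 1) with hN
  have hNap : ∀ u, (x : Matrix ι ι F) *ᵥ u = u + N u := by
    intro u
    rw [hN, Matrix.mulVecLin_apply, Matrix.sub_mulVec, Matrix.one_mulVec]
    abel
  have hQx := (mem_isometryGroup_iff _ _).mp hx
  have hiso : ∀ u v, polarBilin Q (u + N u) (v + N v) = polarBilin Q u v := by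
    intro u v
    rw [← hNap, ← hNap]
    show polar Q _ _ = polar Q _ _
    simp only [polar, ← Matrix.mulVec_add, hQx]
  have hnil : IsNilpotent N := ⟨p, hr.pow_eq_zero fun e he => (hμ e he).2⟩
  have hNW : ∀ v ∈ W, N v ∈ W := by
    intro v hv
    have h1 : (x : Matrix ι ι F) *ᵥ v ∈ W := hxW ⟨v, hv, rfl⟩
    rw [hNap] at h1
    exact (Submodule.add_mem_iff_right W hv).mp h1
  have hnd : (LinearMap.BilinForm.restrict (polarBilin Q) W).Nondegenerate := by
    constructor
    · intro w hw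
      by_contra hne
      have hne' : (w : ι → F) ≠ 0 := fun h => hne (Subtype.ext h)
      obtain ⟨y, hy, hy'⟩ := (hW w w.2 hne').2
      exact hy' (hw ⟨y, hy⟩)
    · intro w hw
      by_contra hne
      have hne' : (w : ι → F) ≠ 0 := fun h => hne (Subtype.ext h)
      obtain ⟨y, hy, hy'⟩ := (hW w w.2 hne').1
      exact hy' (hw ⟨y, hy⟩)
  have hS : LinearMap.BilinForm.IsSymm (polarBilin Q) := ⟨fun u v => polar_comm _ _ _⟩
  obtain ⟨ν, h1, h3, h4, h5⟩ := exists_sub_type h2 (polarBilin Q) hS hQ hnil hiso h0 hr W hnd hNW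
  refine ⟨ν, h1, h3, h4, ?_⟩
  rintro j rfl
  have hsq : (N.restrict hNW) ^ 2 = 0 := h5.pow_eq_zero fun e he => (Multiset.eq_of_mem_replicate he).le
  have hrk := h5 1
  rw [pow_one, Multiset.map_replicate, Multiset.sum_replicate] at hrk
  rw [Multiset.sum_replicate] at h3
  refine ⟨(LinearMap.range (N.restrict hNW)).map W.subtype, Submodule.map_subtype_le _ _, ?_, ?_⟩
  · rintro _ ⟨_, ⟨w, rfl⟩, rfl⟩
    have hNN : N (N w) = 0 := by
      have h6 := congrArg (fun f => ((f w : W) : ι → F)) hsq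
      simpa [pow_two] using h6
    have h7 := hiso (N w) w
    rw [hNN, add_zero, map_add] at h7
    have h8 : polar Q (N w) (N w) = 0 := add_eq_left.mp h7
    rw [polar_self, two_nsmul, ← two_mul] at h8
    exact (mul_eq_zero.mp h8).resolve_left h2
  · rw [Submodule.finrank_map_subtype_eq, hrk, ← h3]
    simp
    ring

theorem nonscalar_of_pow [Nonempty ι] {x : GL ι F} (hxp : x ^ p = 1) (hne : x ≠ 1) (z : F) :
    (x : Matrix ι ι F) ≠ z • (1 : Matrix ι ι F) := by
  intro hz
  apply hne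
  have h1 : (z • (1 : Matrix ι ι F)) ^ p = 1 := by
    rw [← hz, ← Units.val_pow_eq_pow_val, hxp, Units.val_one]
  rw [smul_pow, one_pow] at h1
  obtain ⟨i⟩ := ‹Nonempty ι›
  have h3 := congrFun (congrFun h1 i) i
  simp only [Matrix.smul_apply, Matrix.one_apply_eq, smul_eq_mul, mul_one] at h3
  have h4 : (z - 1) ^ p = 0 := by
    rw [sub_pow_char, h3, one_pow, sub_self]
  have h5 : z = 1 := sub_eq_zero.mp (pow_eq_zero_iff (Fact.out : p.Prime).ne_zero |>.mp h4)
  apply Units.ext
  rw [hz, h5, one_smul, Units.val_one]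

/-- The key step. -/
theorem fix_key (h2 : (2 : F) ≠ 0) (Q : QuadraticForm F (ι → F)) (hQ : (polarBilin Q).Nondegenerate) {m : ℕ}
    (P : Submodule F (ι → F) → Prop)
    (hfix : ∀ x : GL ι F, x ∈ Cfsg.Geo.omegaGL ⇑Q → x ^ p = 1 → x ≠ 1 →
      ∃ W : Submodule F (ι → F), (finrank F W = m ∧ Cfsg.Geo.IsNondegenerateOn (QuadraticMap.polar ⇑Q) W ∧ P W) ∧
        W.map (Matrix.toLin' (x : Matrix ι ι F)) ≤ W)
    {μ : Multiset ℕ} (hμ : ∀ e ∈ μ, 0 < e ∧ e ≤ p) (hev : ∀ e : ℕ, Even e → Even (μ.count e))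
    (hsum : μ.sum = Fintype.card ι) {e₀ : ℕ} (he₀ : e₀ ∈ μ) (hodd : Odd e₀) {e₁ : ℕ} (he₁ : e₁ ∈ μ) (h2e : 2 ≤ e₁) :
    ∃ W : Submodule F (ι → F), P W ∧ ∃ ν : Multiset ℕ, ν ≤ μ ∧ ν.sum = m ∧ (∀ e : ℕ, Even e → Even (ν.count e)) ∧
      ∀ j, ν = Multiset.replicate j 2 → Cfsg.Geo.IsPlusTypeOn ⇑Q W := by
  obtain ⟨x, hxΩ, hxp, hr⟩ := exists_elt (p := p) h2 Q hQ hμ hev hsum he₀ hodd
  have hne : x ≠ 1 := by
    rintro rfl
    apply hr.ne_zero he₁ h2e
    simp
  obtain ⟨W, ⟨hWm, hWn, hWP⟩, hxW⟩ := hfix x hxΩ hxp hne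
  have hxiso : x ∈ isometryGroup F ⇑Q := by
    obtain ⟨g, -, rfl⟩ := hxΩ
    exact g.2
  obtain ⟨ν, h1, h3, h4, h5⟩ := sub_of_fix h2 Q hQ x hxiso hμ hr W hWn hxW
  exact ⟨W, hWP, ν, h1, by rw [h3, hWm], h4, h5⟩

/-- The partition statement, for multisets with an odd part. -/
theorem fix_partition (h2 : (2 : F) ≠ 0) (Q : QuadraticForm F (ι → F)) (hQ : (polarBilin Q).Nondegenerate) {m : ℕ}
    (hm : m ≤ Fintype.card ι) (P : Submodule F (ι → F) → Prop)
    (hfix : ∀ x : GL ι F, x ∈ Cfsg.Geo.omegaGL ⇑Q → x ^ p = 1 → x ≠ 1 →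
      ∃ W : Submodule F (ι → F), (finrank F W = m ∧ Cfsg.Geo.IsNondegenerateOn (QuadraticMap.polar ⇑Q) W ∧ P W) ∧
        W.map (Matrix.toLin' (x : Matrix ι ι F)) ≤ W)
    (μ : Multiset ℕ) (hμ : ∀ e ∈ μ, 0 < e ∧ e ≤ p) (hev : ∀ e : ℕ, Even e → Even (μ.count e))
    (hsum : μ.sum = Fintype.card ι) (hodd : ∃ e₀ ∈ μ, Odd e₀) :
    ∃ ν : Multiset ℕ, ν ≤ μ ∧ ν.sum = m ∧ ∀ e : ℕ, Even e → Even (ν.count e) := by
  obtain ⟨e₀, he₀, hodd⟩ := hodd
  by_cases hall : ∀ e ∈ μ, e = 1
  · have hμ1 : μ = Multiset.replicate (Multiset.card μ) 1 := Multiset.eq_replicate.mpr ⟨rfl, hall⟩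
    have hc : Multiset.card μ = Fintype.card ι := by
      rw [← hsum]
      conv_rhs => rw [hμ1]
      simp
    refine ⟨Multiset.replicate m 1, ?_, by simp, ?_⟩
    · rw [hμ1]
      exact Multiset.replicate_le_replicate _ |>.mpr (by
        simpa [hc] using hm)
    · intro e he
      rw [Multiset.count_replicate, if_neg]
      · exact ⟨0, rfl⟩
      · rintro rfl
        exact absurd he (by decide)
  · push Not at hall
    obtain ⟨e₁, he₁, hne⟩ := hall
    have h2e : 2 ≤ e₁ := by
      have := (hμ e₁ he₁).1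
      omega
    obtain ⟨W, -, ν, h1, h3, h4, -⟩ := fix_key h2 Q hQ P hfix hμ hev hsum he₀ hodd he₁ h2e
    exact ⟨ν, h1, h3, h4⟩

end Fix

end Cfsg.Agent.Lib.JordanFix
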