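import Cfsg.Agent.Lib.Jordan.FormsFin
import Cfsg.Agent.Lib.Jordan.Basis

/-!
# Rank sequences of nilpotent maps, and invariant nondegenerate subspaces

`HasRanks N μ` records the block sizes `μ` of a nilpotent map through the ranks of its powers.  If an isometry `1 + N`
of a nondegenerate symmetric form fixes a nondegenerate subspace `W` then the block sizes on `W` form a sub-multiset,
whose even parts have even multiplicity.
-/

set_option autoImplicit false
set_option linter.unusedSectionVars false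

namespace Cfsg.Agent.Lib.JordanFix

open Module Cfsg Cfsg.Agent.Lib.Jordan.Basis Cfsg.Agent.Lib.Jordan.Cent Cfsg.Agent.Lib.Jordan.FormsNec
open scoped Matrix

variable {F : Type*} [Field F]

section Ranks

variable {V V' : Type*} [AddCommGroup V] [Module F V] [AddCommGroup V'] [Module F V']

/-- The ranks of the powers of `N` are those of a nilpotent map with block sizes `μ`. -/
def HasRanks (N : V →ₗ[F] V) (μ : Multiset ℕ) : Prop :=
  ∀ s, finrank F (LinearMap.range (N ^ s)) = (μ.map (fun a => a - s)).sum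

theorem HasRanks.of_jordan {t : ℕ} {N : V →ₗ[F] V} {d : Fin t → ℕ} {b : Basis ((k : Fin t) × Fin (d k)) F V}
    (h : IsJordanBasis N d b) : HasRanks N (mset d) := by
  intro s
  rw [mset_sum_sub, h.finrank_range_pow]

theorem HasRanks.conj (e : V ≃ₗ[F] V') {N : V →ₗ[F] V} {N' : V' →ₗ[F] V'} (h : ∀ v, e (N v) = N' (e v))
    {μ : Multiset ℕ} (hN : HasRanks N μ) : HasRanks N' μ := by
  intro s
  rw [← hN s]
  have hpow : ∀ (s : ℕ) (x : V), e ((N ^ s) x) = (N' ^ s) (e x) := by
    intro s
    induction s with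
    | zero => simp
    | succ s ih =>
      intro x
      rw [pow_succ, Module.End.mul_apply, pow_succ, Module.End.mul_apply, ih, h]
  have hr : LinearMap.range (N' ^ s) = (LinearMap.range (N ^ s)).map e.toLinearMap := by
    ext y
    constructor
    · rintro ⟨x, rfl⟩
      refine ⟨(N ^ s) (e.symm x), ⟨_, rfl⟩, ?_⟩
      show e ((N ^ s) (e.symm x)) = _
      rw [hpow, LinearEquiv.apply_symm_apply]
    · rintro ⟨_, ⟨x, rfl⟩, rfl⟩
      exact ⟨e x, (hpow s x).symm⟩
  rw [hr]
  exact LinearEquiv.finrank_map_eq e _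

theorem prodMap_pow (f : V →ₗ[F] V) (g : V' →ₗ[F] V') (s : ℕ) : (f.prodMap g) ^ s = (f ^ s).prodMap (g ^ s) := by
  induction s with
  | zero => rfl
  | succ s ih =>
    rw [pow_succ, ih, pow_succ, pow_succ]
    rfl

/-- The product of two submodules. -/
def prodSubEquiv (p : Submodule F V) (q : Submodule F V') : ↥(p.prod q) ≃ₗ[F] p × q where
  toFun x := (⟨x.1.1, x.2.1⟩, ⟨x.1.2, x.2.2⟩)
  map_add' _ _ := rfl
  map_smul' _ _ := rfl
  invFun x := ⟨(x.1.1, x.2.1), ⟨x.1.2, x.2.2⟩⟩
  left_inv _ := rfl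
  right_inv _ := rfl

theorem finrank_range_prodMap [FiniteDimensional F V] [FiniteDimensional F V'] (f : V →ₗ[F] V) (g : V' →ₗ[F] V') :
    finrank F (LinearMap.range (f.prodMap g)) = finrank F (LinearMap.range f) + finrank F (LinearMap.range g) := by
  rw [LinearMap.range_prodMap, ← Module.finrank_prod]
  exact LinearEquiv.finrank_eq (prodSubEquiv _ _)

theorem HasRanks.prod [FiniteDimensional F V] [FiniteDimensional F V'] {N₁ : V →ₗ[F] V} {N₂ : V' →ₗ[F] V'}
    {μ₁ μ₂ : Multiset ℕ} (h₁ : HasRanks N₁ μ₁) (h₂ : HasRanks N₂ μ₂) : HasRanks (N₁.prodMap N₂) (μ₁ + μ₂) := by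
  intro s
  rw [prodMap_pow, finrank_range_prodMap, h₁ s, h₂ s, Multiset.map_add, Multiset.sum_add]

theorem HasRanks.of_isCompl [FiniteDimensional F V] {N : V →ₗ[F] V} {W W' : Submodule F V} (hc : IsCompl W W')
    (hW : ∀ v ∈ W, N v ∈ W) (hW' : ∀ v ∈ W', N v ∈ W') {μ₁ μ₂ : Multiset ℕ}
    (h₁ : HasRanks (N.restrict hW) μ₁) (h₂ : HasRanks (N.restrict hW') μ₂) : HasRanks N (μ₁ + μ₂) := by
  refine HasRanks.conj (Submodule.prodEquivOfIsCompl W W' hc) ?_ (h₁.prod h₂)
  rintro ⟨a, b⟩
  simp [Submodule.coe_prodEquivOfIsCompl', map_add]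

theorem HasRanks.sum_eq_of_nil [FiniteDimensional F V] {N : V →ₗ[F] V} {μ : Multiset ℕ} (h : HasRanks N μ) :
    finrank F V = μ.sum := by
  have h0 := h 0
  rw [pow_zero, Module.End.one_eq_id, LinearMap.range_id, finrank_top] at h0
  simpa using h0

/-- If all blocks have size at most `p` then the `p`-th power vanishes. -/
theorem HasRanks.pow_eq_zero [FiniteDimensional F V] {N : V →ₗ[F] V} {μ : Multiset ℕ} (h : HasRanks N μ) {p : ℕ}
    (hp : ∀ e ∈ μ, e ≤ p) : N ^ p = 0 := by
  have h0 := h p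
  have h1 : (μ.map (fun a => a - p)).sum = 0 := by
    rw [Multiset.sum_eq_zero_iff]
    intro x hx
    obtain ⟨a, ha, rfl⟩ := Multiset.mem_map.mp hx
    have := hp a ha
    omega
  rw [h1, Submodule.finrank_eq_zero, LinearMap.range_eq_bot] at h0
  exact h0

/-- A map with a block of size at least two does not vanish. -/
theorem HasRanks.ne_zero {N : V →ₗ[F] V} {μ : Multiset ℕ} (h : HasRanks N μ) {e : ℕ} (he : e ∈ μ) (h2 : 2 ≤ e) :
    N ≠ 0 := by
  rintro rfl
  have h0 := h 1
  have h1 : (μ.map (fun a => a - 1)).sum = 0 := by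
    rw [← h0, pow_one, LinearMap.range_zero, finrank_bot]
  rw [Multiset.sum_eq_zero_iff] at h1
  have := h1 (e - 1) (Multiset.mem_map.mpr ⟨e, he, rfl⟩)
  omega

end Ranks

section Restrict

variable {V : Type*} [AddCommGroup V] [Module F V]

theorem restrict_pow_coe (N : V →ₗ[F] V) {W : Submodule F V} (hW : ∀ v ∈ W, N v ∈ W) (s : ℕ) (v : W) :
    (((N.restrict hW) ^ s) v : V) = (N ^ s) v := by
  induction s generalizing v with
  | zero => simp
  | succ s ih =>
    rw [pow_succ, Module.End.mul_apply, ih, pow_succ, Module.End.mul_apply]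
    rfl

theorem restrict_isNilpotent {N : V →ₗ[F] V} (hN : IsNilpotent N) {W : Submodule F V} (hW : ∀ v ∈ W, N v ∈ W) :
    IsNilpotent (N.restrict hW) := by
  obtain ⟨k, hk⟩ := hN
  refine ⟨k, ?_⟩
  ext v
  rw [restrict_pow_coe, hk]
  rfl

end Restrict

section Main

variable {V : Type*} [AddCommGroup V] [Module F V] [FiniteDimensional F V]

theorem toMatrix_unipotent {t : ℕ} {V₁ : Type*} [AddCommGroup V₁] [Module F V₁] {d : Fin t → ℕ}
    {b : Basis ((k : Fin t) × Fin (d k)) F V₁} {N : V₁ →ₗ[F] V₁}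
    (h : IsJordanBasis N d b) : LinearMap.toMatrix b b (1 + N) = jordanTypeMatrix d F := by
  classical
  rw [J_eq, map_add, LinearMap.toMatrix_one]
  congr 1
  ext y z
  rw [LinearMap.toMatrix_apply, h z.1 z.2]
  obtain ⟨k, j⟩ := z
  obtain ⟨k', i⟩ := y
  simp only [Nil]
  by_cases h1 : (j : ℕ) + 1 < d k
  · rw [dif_pos h1, b.repr_self, Finsupp.single_apply]
    by_cases h2 : k' = k ∧ (i : ℕ) = (j : ℕ) + 1
    · obtain ⟨rfl, h3⟩ := h2
      have h4 : (⟨k', ⟨(j : ℕ) + 1, h1⟩⟩ : (k : Fin t) × Fin (d k)) = ⟨k', i⟩ := by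
        congr 1
        exact Fin.ext h3.symm
      rw [if_pos h4, if_pos ⟨rfl, h3⟩]
    · rw [if_neg, if_neg h2]
      intro h3
      apply h2
      have h4 := congrArg Sigma.fst h3
      simp only at h4
      subst h4
      simp only [Sigma.mk.injEq, heq_eq_eq, true_and] at h3
      exact ⟨rfl, (congrArg Fin.val h3).symm⟩
  · rw [dif_neg h1, map_zero, Finsupp.zero_apply, if_neg]
    rintro ⟨rfl, h3⟩
    have := i.2
    omega

/-- Block sizes of an isometry on an invariant nondegenerate subspace. -/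
theorem exists_sub_type (h2 : (2 : F) ≠ 0) (B : LinearMap.BilinForm F V) (hS : B.IsSymm) (hB : B.Nondegenerate)
    {N : V →ₗ[F] V} (hN : IsNilpotent N) (hiso : ∀ u v, B (u + N u) (v + N v) = B u v) {μ : Multiset ℕ} (h0 : 0 ∉ μ)
    (hr : HasRanks N μ) (W : Submodule F V) (hW : (B.restrict W).Nondegenerate) (hNW : ∀ v ∈ W, N v ∈ W) :
    ∃ ν : Multiset ℕ, ν ≤ μ ∧ ν.sum = finrank F W ∧ (∀ e : ℕ, Even e → Even (ν.count e)) ∧
      HasRanks (N.restrict hNW) ν := by
  classical
  have hrefl : B.IsRefl := hS.isRefl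
  have hc : IsCompl W (B.orthogonal W) := LinearMap.BilinForm.isCompl_orthogonal_of_restrict_nondegenerate hrefl hW
  -- the complement is invariant
  have hinj : Function.Injective (fun v : W => (⟨v + N v, W.add_mem v.2 (hNW v v.2)⟩ : W)) := by
    intro u v huv
    have h1 : (u : V) + N u = v + N v := congrArg Subtype.val huv
    have h3 : (u : V) = v := by
      have h4 : ((u : V) - v) = 0 := by
        apply hB.1
        intro y
        have h5 := hiso ((u : V) - v) y
        have h6 : ((u : V) - v) + N ((u : V) - v) = 0 := by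
          rw [map_sub]
          linear_combination (norm := abel_nf) h1
        rw [h6] at h5
        simpa using h5.symm
      exact sub_eq_zero.mp h4
    exact Subtype.ext h3
  have hsurj : Function.Surjective (fun v : W => (⟨v + N v, W.add_mem v.2 (hNW v v.2)⟩ : W)) := by
    let T : W →ₗ[F] W := LinearMap.id + N.restrict hNW
    have hT : ∀ v : W, T v = ⟨v + N v, W.add_mem v.2 (hNW v v.2)⟩ := fun v => rfl
    have h1 : Function.Injective T := by
      intro u v huv
      apply hinj
      simpa [hT] using huv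
    have h3 := LinearMap.injective_iff_surjective.mp h1
    intro w
    obtain ⟨v, hv⟩ := h3 w
    exact ⟨v, hv⟩
  have hNW' : ∀ v ∈ B.orthogonal W, N v ∈ B.orthogonal W := by
    intro v hv w hw
    obtain ⟨w₁, hw₁⟩ := hsurj ⟨w, hw⟩
    have h1 : (w₁ : V) + N w₁ = w := congrArg Subtype.val hw₁
    have h3 : B w (v + N v) = 0 := by
      rw [← h1, hiso]
      exact hv w₁ w₁.2
    have h4 : B w v = 0 := hv w hw
    rw [map_add, h4, zero_add] at h3
    exact h3
  obtain ⟨t₁, d₁, b₁, hd₁, hb₁⟩ := exists_jordanBasis (N.restrict hNW) (restrict_isNilpotent hN hNW)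
  obtain ⟨t₂, d₂, b₂, hd₂, hb₂⟩ := exists_jordanBasis (N.restrict hNW') (restrict_isNilpotent hN hNW')
  have hr₁ := HasRanks.of_jordan hb₁
  have hr₂ := HasRanks.of_jordan hb₂
  have hr₃ := HasRanks.of_isCompl hc hNW hNW' hr₁ hr₂
  have hμ : μ = mset d₁ + mset d₂ := by
    apply multiset_eq_of_sum_sub _ _ h0
    · rw [Multiset.mem_add]
      rintro (h | h)
      · exact zero_notMem_mset hd₁ h
      · exact zero_notMem_mset hd₂ h
    · intro s
      rw [← hr s, hr₃ s]
  refine ⟨mset d₁, ?_, ?_, ?_, hr₁⟩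
  · rw [hμ]
    exact Multiset.le_add_right _ _
  · rw [← hb₁.sum_eq]
    rfl
  · intro e he
    by_cases he0 : e = 0
    · subst he0
      rw [Multiset.count_eq_zero_of_notMem (zero_notMem_mset hd₁)]
      exact ⟨0, rfl⟩
    have hpos : 0 < e := Nat.pos_of_ne_zero he0
    -- the Gram matrix
    let BW := B.restrict W
    let G : Matrix (Ix d₁) (Ix d₁) F := LinearMap.BilinForm.toMatrix b₁ BW
    have hdet : G.det ≠ 0 := (LinearMap.BilinForm.nondegenerate_iff_det_ne_zero b₁).mp hW
    have hu : IsUnit G := (Matrix.isUnit_iff_isUnit_det G).mpr (isUnit_iff_ne_zero.mpr hdet)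
    have hsym : ∀ x y, G y x = G x y := by
      intro x y
      show LinearMap.BilinForm.toMatrix b₁ BW y x = LinearMap.BilinForm.toMatrix b₁ BW x y
      rw [LinearMap.BilinForm.toMatrix_apply, LinearMap.BilinForm.toMatrix_apply]
      exact hS.eq _ _
    have hInv : Cfsg.Agent.Lib.Jordan.FormsNec.Inv G := by
      unfold Cfsg.Agent.Lib.Jordan.FormsNec.Inv
      rw [← toMatrix_unipotent hb₁]
      show (LinearMap.toMatrix b₁ b₁ (1 + N.restrict hNW))ᵀ * LinearMap.BilinForm.toMatrix b₁ BW *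
        LinearMap.toMatrix b₁ b₁ (1 + N.restrict hNW) = LinearMap.BilinForm.toMatrix b₁ BW
      rw [← LinearMap.BilinForm.toMatrix_comp]
      congr 1
      ext u v
      exact hiso u v
    have h3 := even_of_sym_form h2 hInv hu hsym e he hpos
    have h4 : (mset d₁).count e = (Finset.univ.filter (fun k : Fin t₁ => d₁ k = e)).card := by
      rw [mset, Multiset.count_map]
      simp only [eq_comm, Finset.card, Finset.filter_val]
    rw [h4]
    exact h3

end Main

end Cfsg.Agent.Lib.JordanFix
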