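import Cfsg.Agent.Lib.JordanFix.Ranks
import Cfsg.Agent.Lib.QuadDisc.Classify
import Cfsg.Agent.Lib.Orth.Closure
import Cfsg.Prelude.Def_GeometricClasses

/-!
# Unipotent elements of `Ω` with prescribed block sizes

Over a finite field of odd characteristic `p`, if `μ` is a multiset of positive integers at most `p` whose sum is the
dimension, whose even parts have even multiplicity, and which has an odd part, then `Ω(Q)` contains an element `x`
with `x ^ p = 1` and block sizes `μ`, for every nondegenerate quadratic form `Q`.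
-/

set_option autoImplicit false
set_option linter.unusedSectionVars false

namespace Cfsg.Agent.Lib.JordanFix

open Module Cfsg Cfsg.Agent.Lib.Jordan.Basis Cfsg.Agent.Lib.Jordan.Cent Cfsg.Agent.Lib.Jordan.FormsNec
  Cfsg.Agent.Lib.Jordan.FormsEx Cfsg.Agent.Lib.Jordan.FormsFin Cfsg.Agent.Lib.Classical.MatrixBridge
  Cfsg.Agent.Lib.Orth.Bridge Cfsg.Agent.Lib.Orth.Closure Cfsg.Agent.Lib.Orth.Omega Cfsg.Agent.Lib.Orth.Spin
  Cfsg.Agent.Lib.QuadDisc.Basic Cfsg.Agent.Lib.QuadDisc.Classify QuadraticMap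
open scoped Matrix

variable {F : Type*} [Field F]

theorem exists_mset (M : Multiset ℕ) (h0 : 0 ∉ M) :
    ∃ (t : ℕ) (d : Fin t → ℕ), mset d = M ∧ ∀ k, 1 ≤ d k := by
  classical
  let l := M.toList
  let d : Fin l.length → ℕ := l.get
  have hm : mset d = M := by
    rw [mset, Fin.univ_val_map]
    have : List.ofFn d = l := List.ofFn_get l
    rw [this]
    exact Multiset.coe_toList M
  refine ⟨_, d, hm, fun k => ?_⟩
  have : d k ∈ M := by
    rw [← Multiset.mem_toList]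
    exact List.get_mem _ _
  rcases Nat.eq_zero_or_pos (d k) with h | h
  · rw [h] at this
    exact absurd this h0
  · exact h

theorem count_mset {t : ℕ} (d : Fin t → ℕ) (e : ℕ) :
    (mset d).count e = (Finset.univ.filter (fun k : Fin t => d k = e)).card := by
  classical
  rw [mset, Multiset.count_map]
  simp only [eq_comm, Finset.card, Finset.filter_val]

theorem hasRanks_std {t : ℕ} (d : Fin t → ℕ) :
    HasRanks (Matrix.mulVecLin (jordanTypeMatrix d F - 1)) (mset d) :=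
  HasRanks.of_jordan (isJordanBasis_std d)

/-- A model with block sizes `μ`, whose form has prescribed discriminant. -/
theorem exists_model (h2 : (2 : F) ≠ 0) {μ : Multiset ℕ} (h0 : 0 ∉ μ) (hev : ∀ e : ℕ, Even e → Even (μ.count e))
    {e₀ : ℕ} (he₀ : e₀ ∈ μ) (hodd : Odd e₀) (D : F) (hD : D ≠ 0) :
    ∃ (κ : Type) (_ : Fintype κ) (_ : DecidableEq κ) (G A : Matrix κ κ F),
      G.det ≠ 0 ∧ IsSquare (D * G.det) ∧ Gᵀ = G ∧ Aᵀ * G * A = G ∧ IsUnit A ∧
        HasRanks (Matrix.mulVecLin (A - 1)) μ := by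
  classical
  have h0' : 0 ∉ μ.erase e₀ := fun h => h0 (Multiset.mem_of_mem_erase h)
  obtain ⟨t, d₁, hm, hd₁⟩ := exists_mset _ h0'
  let d₀ : Fin 1 → ℕ := fun _ => e₀
  have he0 : 1 ≤ e₀ := by
    rcases Nat.eq_zero_or_pos e₀ with h | h
    · rw [h] at he₀
      exact absurd he₀ h0
    · exact h
  obtain ⟨G₀, hI₀, hU₀, hS₀⟩ := exists_sym_form (F := F) (d := d₀) h2 (fun _ => he0) (by
    intro j hj _
    have h1 : (Finset.univ.filter (fun k : Fin 1 => d₀ k = j)) = ∅ := by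
      rw [Finset.filter_eq_empty_iff]
      intro k _ hk
      have hk' : e₀ = j := hk
      rw [hk'] at hodd
      exact (Nat.not_even_iff_odd.mpr hodd) hj
    rw [h1]
    exact ⟨0, rfl⟩)
  obtain ⟨G₁, hI₁, hU₁, hS₁⟩ := exists_sym_form (F := F) (d := d₁) h2 hd₁ (by
    intro j hj _
    rw [← count_mset, hm, Multiset.count_erase_of_ne]
    · exact hev j hj
    · rintro rfl
      exact (Nat.not_even_iff_odd.mpr hodd) hj)
  have hdet₀ : G₀.det ≠ 0 := ((Matrix.isUnit_iff_isUnit_det G₀).mp hU₀).ne_zero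
  have hdet₁ : G₁.det ≠ 0 := ((Matrix.isUnit_iff_isUnit_det G₁).mp hU₁).ne_zero
  obtain ⟨c, hc⟩ : ∃ c, c = D * G₀.det * G₁.det := ⟨_, rfl⟩
  have hc0 : c ≠ 0 := by
    rw [hc]
    exact mul_ne_zero (mul_ne_zero hD hdet₀) hdet₁
  have hcard : Fintype.card (Ix d₀) = e₀ := by
    simp [Ix, d₀]
  have hdetG : (Matrix.fromBlocks (c • G₀) 0 0 G₁).det = c ^ e₀ * G₀.det * G₁.det := by
    rw [Matrix.det_fromBlocks_zero₂₁, Matrix.det_smul, hcard]
  have hJ₀ := J_isUnit_of_inv hI₀ hU₀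
  have hJ₁ := J_isUnit_of_inv hI₁ hU₁
  refine ⟨Ix d₀ ⊕ Ix d₁, inferInstance, inferInstance, Matrix.fromBlocks (c • G₀) 0 0 G₁,
    Matrix.fromBlocks (jordanTypeMatrix d₀ F) 0 0 (jordanTypeMatrix d₁ F), ?_, ?_, ?_, ?_, ?_, ?_⟩
  · rw [hdetG]
    exact mul_ne_zero (mul_ne_zero (pow_ne_zero _ hc0) hdet₀) hdet₁
  · rw [hdetG]
    have h1 : D * (c ^ e₀ * G₀.det * G₁.det) = c ^ (e₀ + 1) := by
      rw [pow_succ, hc]
      ring
    rw [h1]
    exact (hodd.add_one).isSquare_pow c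
  · rw [Matrix.fromBlocks_transpose]
    have h1 : G₀ᵀ = G₀ := by
      ext x y
      exact hS₀ x y
    have h3 : G₁ᵀ = G₁ := by
      ext x y
      exact hS₁ x y
    simp [Matrix.transpose_smul, h1, h3]
  · have h1 : (jordanTypeMatrix d₀ F)ᵀ * G₀ * jordanTypeMatrix d₀ F = G₀ := hI₀
    rw [Matrix.fromBlocks_transpose, Matrix.fromBlocks_multiply, Matrix.fromBlocks_multiply]
    have h3 : (jordanTypeMatrix d₁ F)ᵀ * G₁ * jordanTypeMatrix d₁ F = G₁ := hI₁
    simp [h1, h3]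
  · rw [Matrix.isUnit_iff_isUnit_det, Matrix.det_fromBlocks_zero₂₁]
    exact ((Matrix.isUnit_iff_isUnit_det _).mp hJ₀).mul ((Matrix.isUnit_iff_isUnit_det _).mp hJ₁)
  · have h1 : μ = mset d₀ + mset d₁ := by
      rw [hm]
      have : mset d₀ = {e₀} := by
        simp [mset, d₀]
      rw [this, Multiset.singleton_add, Multiset.cons_erase he₀]
    rw [h1]
    refine HasRanks.conj (LinearEquiv.sumArrowLequivProdArrow _ _ F F).symm ?_
      ((hasRanks_std (F := F) d₀).prod (hasRanks_std (F := F) d₁))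
    rintro ⟨u, v⟩
    funext z
    have h3 : ((LinearEquiv.sumArrowLequivProdArrow (Ix d₀) (Ix d₁) F F).symm (u, v)) = Sum.elim u v := by
      funext z
      rcases z with z | z <;> rfl
    rw [h3]
    have h4 : Matrix.fromBlocks (jordanTypeMatrix d₀ F) 0 0 (jordanTypeMatrix d₁ F) - 1 =
        Matrix.fromBlocks (jordanTypeMatrix d₀ F - 1) 0 0 (jordanTypeMatrix d₁ F - 1) := by
      rw [sub_eq_iff_eq_add, ← Matrix.fromBlocks_one, Matrix.fromBlocks_add]
      simp
    rw [Matrix.mulVecLin_apply, h4, Matrix.fromBlocks_mulVec]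
    rcases z with z | z <;> simp [LinearMap.prodMap_apply, Matrix.sub_mulVec]

theorem mulVecLin_pow' {κ : Type*} [Fintype κ] [DecidableEq κ] (M : Matrix κ κ F) (k : ℕ) :
    Matrix.mulVecLin (M ^ k) = (Matrix.mulVecLin M) ^ k := by
  induction k with
  | zero =>
    ext
    simp
  | succ k ih =>
    rw [pow_succ, Matrix.mulVecLin_mul, ih, pow_succ]
    rfl

theorem zmod2_eq_zero_of_pow {a : ZMod 2} {p : ℕ} (hp : Odd p) (h : Multiplicative.ofAdd a ^ p = 1) : a = 0 := by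
  obtain ⟨k, rfl⟩ := hp
  have h1 : ((2 * k + 1 : ℕ) : ZMod 2) = 1 := by
    have h3 : (2 : ZMod 2) = 0 := rfl
    push_cast
    rw [h3]
    simp
  rw [← ofAdd_nsmul] at h
  have h3 : (2 * k + 1) • a = 0 := h
  rw [nsmul_eq_mul, h1, one_mul] at h3
  exact h3

/-- Existence of unipotent elements of `Ω` with given block sizes. -/
theorem exists_elt [Fintype F] {p : ℕ} [Fact p.Prime] [CharP F p] (h2 : (2 : F) ≠ 0) {ι : Type} [Fintype ι]
    [DecidableEq ι] (Q : QuadraticForm F (ι → F)) (hQ : (polarBilin Q).Nondegenerate) {μ : Multiset ℕ}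
    (hμ : ∀ e ∈ μ, 0 < e ∧ e ≤ p) (hev : ∀ e : ℕ, Even e → Even (μ.count e)) (hsum : μ.sum = Fintype.card ι)
    {e₀ : ℕ} (he₀ : e₀ ∈ μ) (hodd : Odd e₀) :
    ∃ x : GL ι F, x ∈ Cfsg.Geo.omegaGL ⇑Q ∧ x ^ p = 1 ∧ HasRanks (Matrix.mulVecLin ((x : Matrix ι ι F) - 1)) μ := by
  classical
  have h0 : 0 ∉ μ := fun h => lt_irrefl _ (hμ 0 h).1
  set B : LinearMap.BilinForm F (ι → F) := polarBilin Q with hB
  obtain ⟨D, hD⟩ : ∃ D, D = (LinearMap.BilinForm.toMatrix (finBasis F (ι → F)) B).det := ⟨_, rfl⟩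
  have hD0 : D ≠ 0 := by
    rw [hD]
    exact (LinearMap.BilinForm.nondegenerate_iff_det_ne_zero _).mp hQ
  obtain ⟨κ, _, _, G, A, hG0, hGsq, hGt, hAG, hAu, hAr⟩ := exists_model h2 h0 hev he₀ hodd D hD0
  let B' : LinearMap.BilinForm F (κ → F) := Matrix.toBilin' G
  have hB'ap : ∀ u v, B' u v = u ⬝ᵥ G *ᵥ v := fun u v => Matrix.toBilin'_apply' G u v
  have hB'mat : LinearMap.BilinForm.toMatrix (Pi.basisFun F κ) B' = G := by
    rw [LinearMap.BilinForm.toMatrix_basisFun, LinearMap.BilinForm.toMatrix'_toBilin']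
  have hB'nd : B'.Nondegenerate := (LinearMap.BilinForm.nondegenerate_iff_det_ne_zero (Pi.basisFun F κ)).mpr (by
    rw [hB'mat]
    exact hG0)
  have hB'S : B'.IsSymm := ⟨fun u v => by
    show B' u v = B' v u
    rw [hB'ap, hB'ap, Matrix.dotProduct_mulVec, dotProduct_comm, ← Matrix.mulVec_transpose, hGt]⟩
  have hBS : B.IsSymm := ⟨fun u v => by
    show polar Q u v = polar Q v u
    exact polar_comm _ _ _⟩
  have hfin : finrank F (ι → F) = finrank F (κ → F) := by
    rw [HasRanks.sum_eq_of_nil hAr, hsum, Module.finrank_fintype_fun_eq_card]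
  obtain ⟨φ, hφ⟩ := exists_isometry h2 B B' hQ hB'nd hBS hB'S hfin (by
    obtain ⟨u, _, hu⟩ := det_gram_change (Pi.basisFun F κ) (finBasis F (κ → F)) B'
    rw [hu, hB'mat, ← hD]
    obtain ⟨r, hr⟩ := hGsq
    exact ⟨u * r, by linear_combination (u * u) * hr⟩)
  have hAiso : ∀ u v, B' (A *ᵥ u) (A *ᵥ v) = B' u v := by
    intro u v
    rw [hB'ap, hB'ap, dot_mulVec_mulVec, hAG]
  let Ag : GL κ F := hAu.unit
  have hAg : (Ag : Matrix κ κ F) = A := hAu.unit_spec
  let T : (ι → F) ≃ₗ[F] (ι → F) := φ.trans ((glToLin Ag).trans φ.symm)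
  let x : GL ι F := glToLin.symm T
  have hxv : ∀ v, (x : Matrix ι ι F) *ᵥ v = φ.symm (A *ᵥ φ v) := by
    intro v
    rw [glToLin_symm_mulVec]
    show φ.symm ((Ag : Matrix κ κ F) *ᵥ φ v) = _
    rw [hAg]
  have hBx : ∀ u v, B ((x : Matrix ι ι F) *ᵥ u) ((x : Matrix ι ι F) *ᵥ v) = B u v := by
    intro u v
    rw [hxv, hxv, ← hφ, LinearEquiv.apply_symm_apply, LinearEquiv.apply_symm_apply, hAiso, hφ]
  have hQx : ∀ v, Q ((x : Matrix ι ι F) *ᵥ v) = Q v := by
    intro v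
    have h3 : polar Q ((x : Matrix ι ι F) *ᵥ v) ((x : Matrix ι ι F) *ᵥ v) = polar Q v v := hBx v v
    rw [polar_self, polar_self, two_nsmul, two_nsmul, ← two_mul, ← two_mul] at h3
    exact mul_left_cancel₀ h2 h3
  have hmem : x ∈ isometryGroup F ⇑Q := (mem_isometryGroup_iff _ _).mpr hQx
  have hranks : HasRanks (Matrix.mulVecLin ((x : Matrix ι ι F) - 1)) μ := by
    refine HasRanks.conj φ.symm ?_ hAr
    intro w
    rw [Matrix.mulVecLin_apply, Matrix.mulVecLin_apply, Matrix.sub_mulVec, Matrix.sub_mulVec, hxv,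
      LinearEquiv.apply_symm_apply, Matrix.one_mulVec, Matrix.one_mulVec, map_sub]
  have hNp : ((x : Matrix ι ι F) - 1) ^ p = 0 := by
    apply Matrix.toLin'.injective
    rw [Matrix.toLin'_apply', mulVecLin_pow', hranks.pow_eq_zero (fun e he => (hμ e he).2), map_zero]
  haveI : Nonempty ι := by
    apply Fintype.card_pos_iff.mp
    rw [← hsum]
    have h3 := Multiset.le_sum_of_mem he₀
    have h4 := (hμ e₀ he₀).1
    omega
  have hxp : x ^ p = 1 := by
    apply Units.ext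
    rw [Units.val_pow_eq_pow_val, Units.val_one]
    have h3 : (x : Matrix ι ι F) = 1 + ((x : Matrix ι ι F) - 1) := by
      abel
    rw [h3, add_pow_char_of_commute _ (Commute.one_left _), one_pow]
    rw [hNp, add_zero]
  refine ⟨x, ?_, hxp, hranks⟩
  have hcardF : Fintype.card F ≠ 2 := by
    intro h
    apply h2
    have h3 := Nat.cast_card_eq_zero F
    rw [h] at h3
    exact_mod_cast h3
  have hpodd : Odd p := by
    rcases (Fact.out : p.Prime).eq_two_or_odd' with h | h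
    · exfalso
      apply h2
      have h3 := CharP.cast_eq_zero F p
      rw [h] at h3
      exact_mod_cast h3
    · exact h
  let g : isometryGroup F ⇑Q := ⟨x, hmem⟩
  have hg : g ^ p = 1 := Subtype.ext hxp
  have hinv := congrArg (invHom Q hQ (Or.inl hcardF)) hg
  rw [map_pow, map_one] at hinv
  have hO : g ∈ Omega F ⇑Q := by
    rw [mem_Omega_iff Q hQ (Or.inl hcardF)]
    exact ⟨zmod2_eq_zero_of_pow hpodd (congrArg Prod.fst hinv), zmod2_eq_zero_of_pow hpodd (congrArg Prod.snd hinv)⟩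
  exact ⟨g, hO, rfl⟩

end Cfsg.Agent.Lib.JordanFix
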